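import Cfsg.Agent.Lib.FusionTransfer.Yoshida
import Mathlib.Algebra.Group.ForwardDiff
import Mathlib.Data.ZMod.Basic

/-!
Yoshida's transfer theorem for weakly closed subgroups.
-/

set_option autoImplicit false

namespace Cfsg.Agent.Lib.FusionTransfer

open Cfsg Cfsg.FusionSystem Cfsg.Agent.Lib.Fusion
open scoped IsMulCommutative commutatorElement

universe u v

theorem choose_pred_cast {p : ℕ} [hp : Fact p.Prime] :
    ∀ k, k ≤ p - 1 → ((p - 1).choose k : ZMod p) = (-1) ^ k := by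
  intro k
  induction k with
  | zero => intro _; simp
  | succ k ih =>
    intro hk
    have h1 : (p - 1).choose k + (p - 1).choose (k + 1) = p.choose (k + 1) := by
      conv_rhs => rw [show p = p - 1 + 1 by have := hp.out.one_lt; omega]
      exact (Nat.choose_succ_succ (p - 1) k).symm
    have h2 : (p.choose (k + 1) : ZMod p) = 0 :=
      (ZMod.natCast_eq_zero_iff _ _).2 (hp.out.dvd_choose_self (by omega) (by omega))
    rw [← h1, Nat.cast_add, ih (by omega)] at h2
    rw [pow_succ, mul_neg_one]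
    exact eq_neg_of_add_eq_zero_right h2

theorem sign_choose_cast {p : ℕ} [hp : Fact p.Prime] {k : ℕ} (hk : k ≤ p - 1) :
    (((-1 : ℤ) ^ (p - 1 - k) * ((p - 1).choose k : ℤ) : ℤ) : ZMod p) = 1 := by
  rw [Int.cast_mul, Int.cast_pow, Int.cast_neg, Int.cast_one, Int.cast_natCast, choose_pred_cast k hk,
    ← pow_add, Nat.sub_add_cancel hk]
  rcases hp.out.eq_two_or_odd with h | h
  · subst h; rfl
  · exact Even.neg_one_pow ⟨(p - 1) / 2, by omega⟩

/-- Iterated commutators in an elementary abelian quotient. -/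
theorem hom_iterate_commutator {G : Type*} [Group G] {B : Type*} [CommGroup B] {p : ℕ} [Fact p.Prime]
    (hexp : ∀ b : B, b ^ p = 1) (R : Subgroup G) (U : R →* B) {z y : G}
    (hz : ∀ r ∈ R, z⁻¹ * r * z ∈ R) (hzk : ∀ (k : ℕ), ∀ r ∈ R, (z ^ k)⁻¹ * r * z ^ k ∈ R) (hy : y ∈ R) :
    ∃ h : (fun u : G => u⁻¹ * z⁻¹ * u * z)^[p - 1] y ∈ R,
      U ⟨_, h⟩ = ∏ k ∈ Finset.range p, U ⟨(z ^ k)⁻¹ * y * z ^ k, hzk k y hy⟩ := by
  set f := fun u : G => u⁻¹ * z⁻¹ * u * z with hf
  have hfR : ∀ n, f^[n] y ∈ R := by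
    intro n
    induction n with
    | zero => exact hy
    | succ n ih =>
      rw [Function.iterate_succ_apply']
      have := R.mul_mem (R.inv_mem ih) (hz _ ih)
      show (f^[n] y)⁻¹ * z⁻¹ * f^[n] y * z ∈ R
      simpa [mul_assoc] using this
  refine ⟨hfR _, ?_⟩
  let a : ℕ → Additive B := fun k => Additive.ofMul (U ⟨(z ^ k)⁻¹ * y * z ^ k, hzk k y hy⟩)
  have hdiff : ∀ n j, ((fwdDiff 1)^[n] a) j =
      Additive.ofMul (U ⟨(z ^ j)⁻¹ * f^[n] y * z ^ j, hzk j _ (hfR n)⟩) := by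
    intro n
    induction n with
    | zero => intro j; rfl
    | succ n ih =>
      intro j
      rw [Function.iterate_succ_apply']
      show ((fwdDiff 1)^[n] a) (j + 1) - ((fwdDiff 1)^[n] a) j = _
      rw [ih, ih, sub_eq_add_neg, ← ofMul_inv, ← ofMul_mul, ← map_inv, mul_comm, ← map_mul]
      congr 2
      apply Subtype.ext
      show ((z ^ j)⁻¹ * f^[n] y * z ^ j)⁻¹ * ((z ^ (j + 1))⁻¹ * f^[n] y * z ^ (j + 1)) =
        (z ^ j)⁻¹ * f^[n + 1] y * z ^ j
      rw [Function.iterate_succ_apply', pow_succ']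
      generalize f^[n] y = u
      simp only [hf]
      have hc : z * z ^ j = z ^ j * z := (Commute.pow_self z j).eq.symm
      have hc' : (z ^ j)⁻¹ * z⁻¹ = z⁻¹ * (z ^ j)⁻¹ := by rw [← mul_inv_rev, ← mul_inv_rev, hc]
      calc ((z ^ j)⁻¹ * u * z ^ j)⁻¹ * ((z * z ^ j)⁻¹ * u * (z * z ^ j))
          = (z ^ j)⁻¹ * u⁻¹ * (z ^ j * ((z * z ^ j)⁻¹)) * u * (z * z ^ j) := by group
        _ = (z ^ j)⁻¹ * u⁻¹ * z⁻¹ * u * (z * z ^ j) := by
          rw [mul_inv_rev, hc']
          group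
        _ = _ := by group
  have h0 := hdiff (p - 1) 0
  have hp1 : p - 1 + 1 = p := by have := (Fact.out : p.Prime).one_lt; omega
  rw [fwdDiff_iter_eq_sum_shift, hp1] at h0
  have h1 : ∀ k ∈ Finset.range p,
      ((-1 : ℤ) ^ (p - 1 - k) * ((p - 1).choose k : ℤ)) • a (0 + k • 1) = a k := by
    intro k hk
    have hk' : k ≤ p - 1 := by have := Finset.mem_range.1 hk; omega
    rw [zero_add, smul_eq_mul, mul_one]
    apply Additive.toMul.injective
    rw [toMul_zsmul]
    have hord : orderOf (Additive.toMul (a k)) ∣ p := orderOf_dvd_of_pow_eq_one (hexp _)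
    conv_rhs => rw [← zpow_one (Additive.toMul (a k))]
    refine zpow_eq_zpow_iff_modEq.2 (Int.ModEq.of_dvd (Int.natCast_dvd_natCast.2 hord) ?_)
    rw [← ZMod.intCast_eq_intCast_iff, sign_choose_cast hk', Int.cast_one]
  rw [Finset.sum_congr rfl h1] at h0
  have h2 := congrArg Additive.toMul h0
  rw [toMul_sum, toMul_ofMul] at h2
  simp only [a, toMul_ofMul, pow_zero, inv_one, one_mul, mul_one] at h2
  exact h2.symm

variable {Ω : Type u} [Group Ω] {S : Subgroup Ω} {F : FusionSystem S} [Finite S]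
  {m : Subgroup (S × S) → ℕ} {B : Type v} [CommGroup B] {Pi : S →* B}

omit [Finite S] in
theorem prod_orbit_split_sub [Fintype (Orb m)] {ι : Type*} [Fintype ι] {R T : Subgroup S} {o₀ : Orb m}
    (hRT : R ≤ T) (hst : ∀ t ∈ T, t • o₀ = o₀ → t ∈ R) (s : ι → S) (hsT : ∀ i, s i ∈ T)
    (hsurj : ∀ t ∈ T, ∃ i, (s i)⁻¹ * t ∈ R) (hinj : ∀ i i', (s i')⁻¹ * s i ∈ R → i' = i)
    [DecidablePred (· ∈ MulAction.orbit T o₀)]
    [DecidablePred (· ∈ MulAction.orbit R o₀)] (f : Orb m → B) :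
    ∏ o ∈ Finset.univ.filter (· ∈ MulAction.orbit T o₀), f o =
      ∏ i, ∏ o ∈ Finset.univ.filter (· ∈ MulAction.orbit R o₀), f (s i • o) := by
  rw [← Finset.prod_product']
  symm
  refine Finset.prod_bij (fun z _ => s z.1 • z.2) ?_ ?_ ?_ (fun _ _ => rfl)
  · rintro ⟨i, o⟩ hz
    obtain ⟨r, rfl⟩ := (Finset.mem_filter.1 (Finset.mem_product.1 hz).2).2
    refine Finset.mem_filter.2 ⟨Finset.mem_univ _, ⟨s i * r, T.mul_mem (hsT i) (hRT r.2)⟩, ?_⟩
    show (s i * (r : S)) • o₀ = s i • (r : S) • o₀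
    exact mul_smul _ _ _
  · rintro ⟨i, o⟩ hz ⟨i', o'⟩ hz' h
    obtain ⟨r, rfl⟩ := (Finset.mem_filter.1 (Finset.mem_product.1 hz).2).2
    obtain ⟨r', rfl⟩ := (Finset.mem_filter.1 (Finset.mem_product.1 hz').2).2
    have h' : s i • (r : S) • o₀ = s i' • (r' : S) • o₀ := h
    have h1 : (s i' * r')⁻¹ * (s i * r) ∈ R := by
      refine hst _ (T.mul_mem (T.inv_mem (T.mul_mem (hsT i') (hRT r'.2))) (T.mul_mem (hsT i) (hRT r.2))) ?_
      rw [mul_smul, mul_smul, h', ← mul_smul (s i'), inv_smul_smul]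
    have h2 : (s i')⁻¹ * s i ∈ R := by
      have := R.mul_mem (R.mul_mem r'.2 h1) (R.inv_mem r.2)
      simpa [mul_assoc] using this
    obtain rfl : i' = i := hinj i i' h2
    exact Prod.ext rfl (MulAction.injective (s i') h')
  · intro o ho
    obtain ⟨⟨t, ht⟩, rfl⟩ := (Finset.mem_filter.1 ho).2
    obtain ⟨i, hi⟩ := hsurj t ht
    refine ⟨(i, ((s i)⁻¹ * t) • o₀), Finset.mem_product.2 ⟨Finset.mem_univ _,
      Finset.mem_filter.2 ⟨Finset.mem_univ _, ⟨⟨_, hi⟩, rfl⟩⟩⟩, ?_⟩
    show s i • ((s i)⁻¹ * t) • o₀ = t • o₀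
    rw [← mul_smul, mul_inv_cancel_left]

omit [Finite S] in
/-- An orbit whose stabilizer maps are congruent to the identity has a trivial displacement product. -/
theorem disp_prod_of_congr [Fintype (Orb m)] {c : Pt m → B} (hc : RightEq Pi c) (o₀ : Orb m)
    (hcon : ∀ a b : S, ((a, b) : S × S) • sec o₀ = sec o₀ → Pi a = Pi b) (x : S)
    [DecidablePred (· ∈ MulAction.orbit S o₀)] :
    ∏ o ∈ Finset.univ.filter (· ∈ MulAction.orbit S o₀), disp c x o =
      (Pi x)⁻¹ ^ (Finset.univ.filter (· ∈ MulAction.orbit S o₀)).card := by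
  classical
  set J := Finset.univ.filter (· ∈ MulAction.orbit S o₀)
  have horb : ∀ t : S, orb (((t, 1) : S × S) • sec o₀) = t • o₀ := fun t => by rw [← smul_orb, orb_sec]
  let e₀ : S → B := fun t => c (((t, 1) : S × S) • sec o₀) * (Pi t)⁻¹
  have hwd : ∀ t t' : S, t • o₀ = t' • o₀ → e₀ t = e₀ t' := by
    intro t t' h
    obtain ⟨b, hb⟩ := orb_eq (show orb (((t, 1) : S × S) • sec o₀) = orb (((t', 1) : S × S) • sec o₀) by
      rw [horb, horb, h])
    have h1 : ((t'⁻¹ * t, b) : S × S) • sec o₀ = sec o₀ := by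
      have h2 := congrArg (fun w : Pt m => ((t'⁻¹, 1) : S × S) • w) hb
      rw [← mul_smul, ← mul_smul, ← mul_smul, Prod.mk_mul_mk, Prod.mk_mul_mk, Prod.mk_mul_mk] at h2
      simpa [mul_assoc, show ((1, 1) : S × S) = 1 from rfl] using h2
    have h3 := hcon _ _ h1
    show c _ * _ = c _ * _
    rw [← hb, hc, map_mul, map_inv] at *
    rw [← h3]
    apply Additive.ofMul.injective
    simp only [ofMul_mul, ofMul_inv]
    abel
  let e : Orb m → B := fun o => if h : o ∈ MulAction.orbit S o₀ then e₀ h.choose else 1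
  have he : ∀ t : S, e (t • o₀) = e₀ t := fun t => by
    have h : t • o₀ ∈ MulAction.orbit S o₀ := MulAction.mem_orbit _ _
    simp only [e, dif_pos h]
    exact hwd _ _ h.choose_spec
  have hval : ∀ o ∈ J, disp c x o = (Pi x)⁻¹ * (e o * (e (x • o))⁻¹) := by
    intro o ho
    obtain ⟨t, rfl⟩ := (Finset.mem_filter.1 ho).2
    show disp c x (t • o₀) = (Pi x)⁻¹ * (e (t • o₀) * (e (x • t • o₀))⁻¹)
    rw [← mul_smul x t, he, he, ← horb, disp_eq hc, ← mul_smul, Prod.mk_mul_mk, mul_one]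
    show _ = (Pi x)⁻¹ * (c _ * (Pi t)⁻¹ * (c _ * (Pi (x * t))⁻¹)⁻¹)
    rw [map_mul]
    apply Additive.ofMul.injective
    simp only [ofMul_mul, ofMul_inv]
    abel
  have hperm : ∏ o ∈ J, e (x • o) = ∏ o ∈ J, e o := by
    refine Finset.prod_bij (fun o _ => x • o) (fun o ho => ?_) (fun a _ b _ h => MulAction.injective x h)
      (fun o ho => ⟨x⁻¹ • o, ?_, smul_inv_smul x o⟩) fun _ _ => rfl
    · exact Finset.mem_filter.2 ⟨Finset.mem_univ _, MulAction.mem_orbit_of_mem_orbit x (Finset.mem_filter.1 ho).2⟩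
    · exact Finset.mem_filter.2 ⟨Finset.mem_univ _, MulAction.mem_orbit_of_mem_orbit x⁻¹ (Finset.mem_filter.1 ho).2⟩
  rw [Finset.prod_congr rfl hval, Finset.prod_mul_distrib, Finset.prod_const, Finset.prod_mul_distrib,
    Finset.prod_inv_distrib, hperm, mul_inv_cancel, mul_one]

/-- The induction inside an orbit whose stabilizer does not contain the weakly closed subgroup. -/
theorem orbit_prod_eq_one {p : ℕ} [Fact p.Prime] (hS : IsPGroup p S) (hm : Good F m) {c : Pt m → B}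
    (hc : RightEq Pi c) [Finite B] (hexp : ∀ b : B, b ^ p = 1) {x : S} (hx1 : x ≠ 1)
    (hmin : ∀ z : S, (z : Ω) ∈ F.focalSubgroup → orderOf z < orderOf x → Pi z = 1)
    (W : Subgroup S) [hW : W.Normal]
    (hno : ∀ y : S, ∀ z ∈ W, ∀ W₀ : Subgroup W, IsCoatom W₀ →
      (fun u : S => u⁻¹ * z⁻¹ * u * z)^[p - 1] y ∈ W₀.map W.subtype →
      (fun u : S => u⁻¹ * z⁻¹ * u * z)^[p - 1] y ∈ ((frattini W₀).map W₀.subtype).map W.subtype)
    [Fintype (Orb m)] (o₀ : Orb m) (hWo : ¬ W ≤ MulAction.stabilizer S o₀) :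
    ∀ (n : ℕ) (T : Subgroup S) [DecidablePred (· ∈ MulAction.orbit T o₀)], Nat.card T = n →
      MulAction.stabilizer S o₀ ≤ T → W ≤ T → ∀ y ∈ T, (y : Ω) ∈ F.focalSubgroup → orderOf y = orderOf x →
      ∏ o ∈ Finset.univ.filter (· ∈ MulAction.orbit T o₀), disp c y o = 1 := by
  classical
  intro n
  induction n using Nat.strong_induction_on with
  | _ n ih =>
  intro T _ hn hPT hWT y hyT hyf hyo
  have hne : (MulAction.stabilizer S o₀).subgroupOf T ≠ ⊤ := fun h =>
    hWo fun w hw => (h.symm ▸ Subgroup.mem_top (⟨w, hWT hw⟩ : T) :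
      (⟨w, hWT hw⟩ : T) ∈ (MulAction.stabilizer S o₀).subgroupOf T)
  obtain ⟨R', hR', hPR'⟩ := (IsCoatomic.eq_top_or_exists_le_coatom _).resolve_left hne
  obtain ⟨hR'n, hR'i⟩ := PGroupFrattini.coatom_index (hS.to_subgroup T) hR'
  set R : Subgroup S := R'.map T.subtype with hRdef
  have hRT : R ≤ T := Subgroup.map_subtype_le _
  have hmemR : ∀ (t : T), (t : S) ∈ R ↔ t ∈ R' := fun t =>
    ⟨fun ⟨u, hu, e⟩ => Subtype.ext e ▸ hu, fun h => ⟨t, h, rfl⟩⟩
  have hconj : ∀ t ∈ T, ∀ r ∈ R, t⁻¹ * r * t ∈ R := by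
    rintro t ht _ ⟨r, hr, rfl⟩
    have := (hmemR (⟨t, ht⟩⁻¹ * r * (⟨t, ht⟩⁻¹)⁻¹)).2 (hR'n.conj_mem r hr ⟨t, ht⟩⁻¹)
    simpa using this
  have hst : ∀ t ∈ T, t • o₀ = o₀ → t ∈ R := fun t ht h => (hmemR ⟨t, ht⟩).2 (hPR' h)
  have hPR : MulAction.stabilizer S o₀ ≤ R := fun t ht => hst t (hPT ht) ht
  set J := Finset.univ.filter (· ∈ MulAction.orbit R o₀) with hJdef
  have hJ : ∀ (r : S), r ∈ R → ∀ o, r • o ∈ J ↔ o ∈ J := by
    intro r hr o
    simp only [J, Finset.mem_filter, Finset.mem_univ, true_and]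
    constructor
    · intro h
      have := MulAction.mem_orbit_of_mem_orbit (⟨r, hr⟩⁻¹ : R) h
      rwa [show (⟨r, hr⟩⁻¹ : R) • r • o = o from inv_smul_smul r o] at this
    · exact fun h => MulAction.mem_orbit_of_mem_orbit (⟨r, hr⟩ : R) h
  have hshift : ∀ (r : S), r ∈ R → ∀ f : Orb m → B, ∏ o ∈ J, f (r • o) = ∏ o ∈ J, f o := by
    intro r hr f
    refine Finset.prod_bij (fun o _ => r • o) (fun o h => (hJ r hr o).2 h)
      (fun a _ b _ h => MulAction.injective r h) (fun o h => ⟨r⁻¹ • o, ?_, smul_inv_smul r o⟩) fun _ _ => rfl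
    rw [← hJ r hr, smul_inv_smul]
    exact h
  let U : R →* B := MonoidHom.mk' (fun r => ∏ o ∈ J, disp c (r : S) o) fun a b => by
    simp only [Subgroup.coe_mul, disp_mul hc, Finset.prod_mul_distrib]
    rw [hshift _ b.2]
  have hUconj : ∀ (g : S) (_ : g ∈ T) (hy : y ∈ R) (hg : g⁻¹ * y * g ∈ R),
      ∏ o ∈ J, disp c y (g • o) = U ⟨g⁻¹ * y * g, hg⟩ := by
    intro g _ _ hg
    have key : ∀ o, disp c y (g • o) =
        disp c (g⁻¹ * y * g) o * (disp c g ((g⁻¹ * y * g) • o) * (disp c g o)⁻¹) := by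
      intro o
      have e : y * g = g * (g⁻¹ * y * g) := by simp [mul_assoc]
      generalize g⁻¹ * y * g = y' at e ⊢
      have h := congrArg (fun z => disp c z o) e
      simp only [disp_mul hc] at h
      rw [eq_mul_inv_of_mul_eq h]
      apply Additive.ofMul.injective
      simp only [ofMul_mul, ofMul_inv]
      abel
    show ∏ o ∈ J, disp c y (g • o) = ∏ o ∈ J, disp c (g⁻¹ * y * g) o
    simp only [key]
    rw [Finset.prod_mul_distrib, Finset.prod_mul_distrib, hshift _ hg (disp c g), ← Finset.prod_mul_distrib,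
      ← Finset.prod_mul_distrib]
    exact Finset.prod_congr rfl fun o _ => by simp
  have hTi : Nat.card (T ⧸ R') = p := hR'i
  -- powers of an element outside form a transversal
  have hpow : ∀ g : T, g ∉ R' → Function.Bijective fun k : Fin p => ((g ^ (k : ℕ) : T) : T ⧸ R') := by
    intro g hg
    have hgen := zpowers_eq_top_of_prime_card hTi (g := (g : T ⧸ R'))
      fun h => hg ((QuotientGroup.eq_one_iff g).1 h)
    have hord : orderOf (g : T ⧸ R') = p := by
      rw [← Nat.card_zpowers, hgen, Subgroup.card_top, hTi]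
    refine (Nat.bijective_iff_injective_and_card _).2 ⟨fun a b h => Fin.ext ?_, by rw [hTi, Nat.card_fin]⟩
    simp only [QuotientGroup.mk_pow] at h
    exact pow_injOn_Iio_orderOf (by rw [hord]; exact a.2) (by rw [hord]; exact b.2) h
  have hsplit : ∀ (g : T), g ∉ R' → ∀ f : Orb m → B,
      ∏ o ∈ Finset.univ.filter (· ∈ MulAction.orbit T o₀), f o =
        ∏ k : Fin p, ∏ o ∈ J, f ((g : S) ^ (k : ℕ) • o) := by
    intro g hg f
    refine prod_orbit_split_sub hRT hst (fun k : Fin p => (g : S) ^ (k : ℕ)) (fun k => pow_mem g.2 _)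
      (fun t ht => ?_) (fun i i' h => ?_) f
    · obtain ⟨k, hk⟩ := (hpow g hg).2 ((⟨t, ht⟩ : T) : T ⧸ R')
      refine ⟨k, ?_⟩
      have := (hmemR _).2 (QuotientGroup.eq.1 hk)
      simpa using this
    · refine (hpow g hg).1 (QuotientGroup.eq.2 ((hmemR _).1 ?_))
      simpa using h
  by_cases hyR : y ∈ R
  · by_cases hWR : W ≤ R
    · -- descend
      have hRlt : Nat.card R < n := by
        rw [← hn]
        refine lt_of_le_of_ne (Subgroup.card_le_of_le hRT) fun h => hR'.1 ?_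
        refine Subgroup.eq_top_of_card_eq _ ?_
        rw [← Subgroup.card_map_of_injective (K := R') T.subtype_injective, ← hRdef, h]
      obtain ⟨g, hg⟩ : ∃ g : T, g ∉ R' := by
        by_contra h
        push Not at h
        exact hR'.1 (eq_top_iff.2 fun t _ => h t)
      rw [hsplit g hg]
      refine Finset.prod_eq_one fun k _ => ?_
      have hgk : (g : S) ^ (k : ℕ) ∈ T := pow_mem g.2 _
      have hy' := hconj _ hgk y hyR
      rw [hUconj _ hgk hyR hy']
      refine ih _ hRlt R rfl hPR hWR _ hy' ?_ ?_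
      · have h1 : ((⁅(y : Ω)⁻¹, (((g : S) ^ (k : ℕ) : S) : Ω)⁻¹⁆)) ∈ F.focalSubgroup :=
          commutator_le_focal (Subgroup.commutator_mem_commutator (S.inv_mem y.2) (S.inv_mem (((g : S) ^ (k : ℕ) : S)).2))
        have h2 := mul_mem hyf h1
        simpa [commutatorElement_def, mul_assoc] using h2
      · rw [← hyo]
        have := MulEquiv.orderOf_eq (MulAut.conj ((g : S) ^ (k : ℕ))⁻¹) y
        simpa only [MulAut.conj_apply, inv_inv] using this
    · -- commutators with an element of the weakly closed subgroup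
      obtain ⟨z, hzW, hzR⟩ := SetLike.not_le_iff_exists.1 hWR
      have hz : (⟨z, hWT hzW⟩ : T) ∉ R' := fun h => hzR ((hmemR _).2 h)
      rw [hsplit ⟨z, hWT hzW⟩ hz, Finset.prod_congr rfl fun (k : Fin p) _ =>
        hUconj _ (pow_mem (hWT hzW) _) hyR (hconj _ (pow_mem (hWT hzW) _) y hyR)]
      obtain ⟨hfR, hval⟩ := hom_iterate_commutator hexp R U (z := z) (y := y)
        (fun r hr => hconj z (hWT hzW) r hr) (fun k r hr => hconj _ (pow_mem (hWT hzW) k) r hr) hyR
      rw [Fin.prod_univ_eq_prod_range (fun k => U ⟨(z ^ k)⁻¹ * y * z ^ k, hconj _ (pow_mem (hWT hzW) k) y hyR⟩),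
        ← hval]
      set u := (fun u : S => u⁻¹ * z⁻¹ * u * z)^[p - 1] y with hu
      have huW : u ∈ W := by
        obtain ⟨j, hj⟩ : ∃ j, p - 1 = j + 1 := ⟨p - 2, by have := (Fact.out : p.Prime).two_le; omega⟩
        rw [hu, hj, Function.iterate_succ_apply']
        exact W.mul_mem (by simpa using hW.conj_mem _ (W.inv_mem hzW) ((fun u : S => u⁻¹ * z⁻¹ * u * z)^[j] y)⁻¹) hzW
      let W₀ : Subgroup W := R.subgroupOf W
      have hW₀ : IsCoatom W₀ := by
        let W' : Subgroup T := W.subgroupOf T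
        have h1 : W₀.index ∣ p := by
          rw [← hR'i]
          have h2 : R'.relIndex W' = W₀.index := by
            show R'.relIndex (W.subgroupOf T) = R.relIndex W
            rw [hRdef]
            conv_rhs => rw [← Subgroup.map_subgroupOf_eq_of_le hWT,
              Subgroup.relIndex_map_map_of_injective _ _ T.subtype_injective]
          exact h2 ▸ Subgroup.relIndex_dvd_index_of_normal R' W'
        have h3 : W₀.index = p := (Fact.out : p.Prime).eq_one_or_self_of_dvd _ h1 |>.resolve_left fun h =>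
          hzR (Subgroup.mem_subgroupOf.1 ((Subgroup.index_eq_one.1 h).symm ▸ Subgroup.mem_top (⟨z, hzW⟩ : W)) :)
        refine ⟨fun h => (Fact.out : p.Prime).ne_one (by rw [← h3, h, Subgroup.index_top]), fun K hK => ?_⟩
        have h4 := Subgroup.relIndex_mul_index hK.le
        rw [h3] at h4
        rcases (Fact.out : p.Prime).eq_one_or_self_of_dvd _ (Dvd.intro_left _ h4) with h | h
        · exact Subgroup.index_eq_one.1 h
        · rw [h] at h4
          have h5 : W₀.relIndex K = 1 := by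
            have := (Fact.out : p.Prime).pos
            nlinarith
          exact absurd (Subgroup.relIndex_eq_one.1 h5) hK.2
      obtain ⟨w, ⟨⟨v, hv⟩, hvΦ, hvw⟩, hwu⟩ := hno y z hzW W₀ hW₀ ⟨⟨u, huW⟩, hfR, rfl⟩
      let UW : W₀ →* B := U.comp ((W.subtype.comp W₀.subtype).codRestrict R fun v => Subgroup.mem_subgroupOf.1 v.2)
      have hker : frattini W₀ ≤ UW.ker :=
        PGroupFrattini.frattini_le (p := p) Fact.out _ (Abelianization.commutator_subset_ker UW) fun v => by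
          rw [MonoidHom.mem_ker, map_pow]; exact hexp _
      have h6 := hker hvΦ
      rw [MonoidHom.mem_ker] at h6
      rw [← h6]
      show U _ = U _
      congr 1
      apply Subtype.ext
      show u = ((v : W) : S)
      rw [← show (w : S) = u from hwu, ← hvw]
      rfl
  · -- the outer case
    have hg : (⟨y, hyT⟩ : T) ∉ R' := fun h => hyR ((hmemR _).2 h)
    rw [hsplit ⟨y, hyT⟩ hg, Finset.prod_comm]
    have htel : ∀ n o, ∏ k : Fin n, disp c y (y ^ (k : ℕ) • o) = disp c (y ^ n) o := by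
      intro n o
      induction n with
      | zero =>
        show 1 = c _ * (c _)⁻¹
        rw [pow_zero, show ((1, 1) : S × S) = 1 from rfl, one_smul, mul_inv_cancel]
      | succ n ih =>
        rw [Fin.prod_univ_castSucc, pow_succ', disp_mul hc]
        simp only [Fin.val_castSucc, Fin.val_last]
        rw [ih, mul_comm]
    simp only [htel]
    have hxp : y ^ p ∈ R := (hmemR (⟨y, hyT⟩ ^ p)).2 (hR'i ▸ R'.pow_index_mem _)
    refine prod_disp_eq_one hm hc ?_ (fun o => hJ _ hxp o)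
    intro a b ha P φ hφ h1 h2
    have haf : (a : Ω) ∈ F.focalSubgroup := by
      obtain ⟨k, rfl⟩ := Subgroup.mem_zpowers_iff.1 ha
      exact zpow_mem (pow_mem hyf p) k
    refine hmin b ?_ ?_
    · have h3 : (a : Ω)⁻¹ * φ ⟨a, h1⟩ ∈ F.focalSubgroup :=
        Subgroup.subset_closure ⟨P, φ, ⟨a, h1⟩, hφ, rfl⟩
      have := mul_mem haf h3
      rwa [mul_inv_cancel_left, h2] at this
    · have e : orderOf b = orderOf a := by
        rw [← Subgroup.orderOf_coe, ← h2, orderOf_injective φ (F.injective_of_mem hφ), Subgroup.orderOf_mk,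
          Subgroup.orderOf_coe]
      rw [e]
      obtain ⟨k, rfl⟩ := Subgroup.mem_zpowers_iff.1 ha
      have hp : p ∣ orderOf y := by
        obtain ⟨k, hk⟩ := hS y
        obtain ⟨j, -, hj⟩ := (Nat.dvd_prime_pow (Fact.out : p.Prime)).1 (orderOf_dvd_of_pow_eq_one hk)
        rw [hj]
        refine dvd_pow_self p fun h => hx1 (orderOf_eq_one_iff.1 ?_)
        rw [← hyo, hj, h, pow_zero]
      refine lt_of_le_of_lt (Nat.le_of_dvd (orderOf_pos _) (orderOf_dvd_of_mem_zpowers ⟨k, rfl⟩)) ?_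
      rw [orderOf_pow_of_dvd (Fact.out : p.Prime).ne_zero hp, ← hyo]
      exact Nat.div_lt_self (orderOf_pos y) (Fact.out : p.Prime).one_lt

end Cfsg.Agent.Lib.FusionTransfer
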