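import Cfsg.Agent.Lib.FusionTransfer.WeaklyClosed
import Cfsg.Agent.Lib.FusionTransfer.GroupCor

/-!
Control of transfer by the normalizer of a weakly closed subgroup.
-/

set_option autoImplicit false

namespace Cfsg.Agent.Lib.FusionTransfer

open Cfsg Cfsg.FusionSystem Cfsg.Agent.Lib.Fusion
open scoped IsMulCommutative commutatorElement

universe u

/-- The image of the Frattini subgroup under an injective homomorphism. -/
theorem frattini_image {A Ω : Type*} [Group A] [Group Ω] (f : A →* Ω) (hf : Function.Injective f)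
    (H : Subgroup A) :
    ((frattini H).map H.subtype).map f = (frattini (H.map f)).map (H.map f).subtype := by
  set e := H.equivMapOfInjective f hf
  apply le_antisymm
  · rintro _ ⟨_, ⟨w, hw, rfl⟩, rfl⟩
    exact ⟨e w, frattini_le_comap_frattini_of_surjective (φ := e.toMonoidHom) e.surjective hw, rfl⟩
  · rintro _ ⟨w, hw, rfl⟩
    refine ⟨_, ⟨e.symm w, frattini_le_comap_frattini_of_surjective (φ := e.symm.toMonoidHom) e.symm.surjective hw,
      rfl⟩, ?_⟩
    show ((e (e.symm w) : H.map f) : Ω) = w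
    rw [MulEquiv.apply_symm_apply]

variable {Ω : Type u} [Group Ω] {S : Subgroup Ω} {F : FusionSystem S} {p : ℕ}

theorem normalizerIn_of_weakly {W : Subgroup Ω} [Finite S] (hW : W ≤ S)
    (hwc : ∀ (R : Subgroup Ω) (φ : R →* Ω), φ ∈ F.Hom R → W ≤ R → ∀ y : R, (y : Ω) ∈ W → φ y ∈ W) :
    normalizerIn S W = S := by
  refine le_antisymm (normalizerIn_le _ _) (le_inf le_rfl fun g hg => ?_)
  have := finite_of_le hW
  exact mem_normalizer_of_conj_mem fun y hy => hwc W (conjHom W g) (F.conj_mem hW hg) le_rfl ⟨y, hy⟩ hy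

theorem map_eq_of_weakly {W : Subgroup Ω} [Finite S] (hW : W ≤ S)
    (hwc : ∀ (R : Subgroup Ω) (φ : R →* Ω), φ ∈ F.Hom R → W ≤ R → ∀ y : R, (y : Ω) ∈ W → φ y ∈ W)
    {R : Subgroup Ω} {φ : R →* Ω} (hφ : φ ∈ F.Hom R) (hWR : W ≤ R) : (W.subgroupOf R).map φ = W := by
  have := finite_of_le hW
  refine eq_of_le_of_natCard_le ?_ ?_
  · rintro _ ⟨y, hy, rfl⟩
    exact hwc R φ hφ hWR y hy
  · rw [Subgroup.card_map_of_injective (F.injective_of_mem hφ),
      Nat.card_congr (Subgroup.subgroupOfEquivOfLe hWR).toEquiv]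

theorem weakly_fullyNormalized {W : Subgroup Ω} [Finite S] (hW : W ≤ S)
    (hwc : ∀ (R : Subgroup Ω) (φ : R →* Ω), φ ∈ F.Hom R → W ≤ R → ∀ y : R, (y : Ω) ∈ W → φ y ∈ W) :
    F.IsFullyNormalized W := by
  refine ⟨hW, ?_⟩
  rintro Q ⟨φ, hφ, rfl⟩
  have h := map_eq_of_weakly hW hwc hφ le_rfl
  rw [Subgroup.subgroupOf_self, ← MonoidHom.range_eq_map] at h
  rw [h]

/-- If focal subgroups differ modulo the Frattini subgroup, a subgroup of index `p` separates them. -/
theorem exists_separating [Fact p.Prime] [Finite S] (hS : IsPGroup p S) {A : Subgroup Ω}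
    (hA : A ≤ F.focalSubgroup)
    (hne : (frattini S).map S.subtype ⊔ F.focalSubgroup ≠ (frattini S).map S.subtype ⊔ A) :
    ∃ M : Subgroup S, M.index = p ∧ M.Normal ∧
      (∀ z : S, (z : Ω) ∈ A → z ∈ M) ∧ ∃ z : S, (z : Ω) ∈ F.focalSubgroup ∧ z ∉ M := by
  by_contra hno
  push Not at hno
  refine hne (le_antisymm (sup_le le_sup_left ?_) (sup_le_sup_left hA _))
  intro z hz
  have hzS : z ∈ S := by
    refine (Subgroup.closure_le (K := S)).2 ?_ hz
    rintro _ ⟨P, φ, y, hφ, rfl⟩
    exact S.mul_mem (S.inv_mem (src_le hφ y.2)) (val_mem hφ y)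
  set K : Subgroup S := ((frattini S).map S.subtype ⊔ A).subgroupOf S
  suffices hK : (⟨z, hzS⟩ : S) ∈ K from hK
  have hΦK : frattini S ≤ K := fun w hw => Subgroup.mem_sup_left ⟨w, hw, rfl⟩
  have hcomm : commutator S ≤ K := (PGroupFrattini.commutator_le_frattini hS).trans hΦK
  have hKn : K.Normal := ⟨fun w hw g => by
    have h1 : ⁅g, w⁆ ∈ K := hcomm (Subgroup.commutator_mem_commutator (Subgroup.mem_top g) (Subgroup.mem_top w))
    have := K.mul_mem h1 hw
    simpa [commutatorElement_def, mul_assoc] using this⟩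
  by_contra hzK
  have hfr : frattini (S ⧸ K) = ⊥ := by
    refine le_bot_iff.1 (PGroupFrattini.frattini_le (p := p) Fact.out ⊥ ?_ fun w => ?_)
    · refine Subgroup.commutator_le.2 fun a _ b _ => ?_
      obtain ⟨a, rfl⟩ := QuotientGroup.mk'_surjective K a
      obtain ⟨b, rfl⟩ := QuotientGroup.mk'_surjective K b
      rw [Subgroup.mem_bot, ← map_commutatorElement, QuotientGroup.mk'_apply, QuotientGroup.eq_one_iff]
      exact hcomm (Subgroup.commutator_mem_commutator (Subgroup.mem_top a) (Subgroup.mem_top b))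
    · obtain ⟨w, rfl⟩ := QuotientGroup.mk'_surjective K w
      rw [Subgroup.mem_bot, ← map_pow, QuotientGroup.mk'_apply, QuotientGroup.eq_one_iff]
      exact hΦK (PGroupFrattini.pow_mem_frattini hS w)
  have hzb : QuotientGroup.mk' K ⟨z, hzS⟩ ∉ frattini (S ⧸ K) := by
    rw [hfr, Subgroup.mem_bot, QuotientGroup.mk'_apply, QuotientGroup.eq_one_iff]
    exact hzK
  simp only [frattini, Order.radical, Subgroup.mem_iInf, not_forall] at hzb
  obtain ⟨M, hM, hzM⟩ := hzb
  obtain ⟨hMn, hMi⟩ := PGroupFrattini.coatom_index (hS.to_quotient K) hM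
  refine hzM (hno (M.comap (QuotientGroup.mk' K)) ?_ (hMn.comap _) (fun w hw => ?_) ⟨z, hzS⟩ hz)
  · rw [Subgroup.index_comap_of_surjective _ (QuotientGroup.mk'_surjective K), hMi]
  · show QuotientGroup.mk' K w ∈ M
    rw [show QuotientGroup.mk' K w = 1 from (QuotientGroup.eq_one_iff w).2 (Subgroup.mem_sup_right hw)]
    exact one_mem M

/-- The transfer theorem for weakly closed subgroups. -/
theorem weakly_closed_yoshida [Fact p.Prime] [Finite S] (hS : IsPGroup p S) (hF : F.IsSaturated p)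
    {W : Subgroup Ω} (hW : W ≤ S)
    (hwc : ∀ (R : Subgroup Ω) (φ : R →* Ω), φ ∈ F.Hom R → W ≤ R → ∀ y : R, (y : Ω) ∈ W → φ y ∈ W)
    (N : FusionSystem (normalizerIn S W)) (hN : F.IsNormalizerSystem W N)
    (hno : ∀ y ∈ S, ∀ z ∈ W, ∀ W₀ : Subgroup W, IsCoatom W₀ →
      (fun u : Ω => u⁻¹ * z⁻¹ * u * z)^[p - 1] y ∈ W₀.map W.subtype →
      (fun u : Ω => u⁻¹ * z⁻¹ * u * z)^[p - 1] y ∈ ((frattini W₀).map W₀.subtype).map W.subtype) :
    N.focalSubgroup = F.focalSubgroup := by
  classical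
  by_contra hne
  have hnorm := normalizerIn_of_weakly hW hwc
  have hNsat := normalizerSystem_saturated hS hF (weakly_fullyNormalized hW hwc) N hN
  have hfocle : N.focalSubgroup ≤ F.focalSubgroup := by
    refine (Subgroup.closure_le _).2 ?_
    rintro _ ⟨P, φ, y, hφ, rfl⟩
    exact Subgroup.subset_closure ⟨P, φ, y, normalizerSystem_le hN _ hφ, rfl⟩
  have hΦne : (frattini S).map S.subtype ⊔ F.focalSubgroup ≠ (frattini S).map S.subtype ⊔ N.focalSubgroup := by
    have key : ∀ (T : Subgroup Ω) (_ : T = S) (E : FusionSystem T), E.IsSaturated p → E.IsSubsystemOf F →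
        E.focalSubgroup ≠ F.focalSubgroup →
        (frattini S).map S.subtype ⊔ F.focalSubgroup ≠ (frattini S).map S.subtype ⊔ E.focalSubgroup := by
      rintro T rfl E hE hsub hne h
      exact hne ((tate hS hF hE hsub).1.1 h).symm
    exact key _ hnorm N hNsat (normalizerSystem_le hN) hne
  obtain ⟨M, hMi, hMn, hNM, x₀, hx₀f, hx₀M⟩ := exists_separating hS hfocle hΦne
  let B := S ⧸ M
  have hBc : Nat.card B = p := hMi
  have : IsCyclic B := isCyclic_of_prime_card hBc
  let _ : CommGroup B := IsCyclic.commGroup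
  have hexp : ∀ b : B, b ^ p = 1 := fun b => hBc ▸ pow_card_eq_one'
  let Pi : S →* B := QuotientGroup.mk' M
  let T : Set S := {z | (z : Ω) ∈ F.focalSubgroup ∧ Pi z ≠ 1}
  obtain ⟨x, ⟨hxf, hxne⟩, hxmin⟩ := T.toFinite.exists_minimalFor orderOf T
    ⟨x₀, hx₀f, fun h => hx₀M ((QuotientGroup.eq_one_iff x₀).1 h)⟩
  have hmin : ∀ z : S, (z : Ω) ∈ F.focalSubgroup → orderOf z < orderOf x → Pi z = 1 := by
    intro z hzf hlt
    by_contra hz
    exact absurd (hxmin ⟨hzf, hz⟩ hlt.le) (not_le.2 hlt)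
  obtain ⟨m, hm, l, hl, π, -, hπ, hπval⟩ := exists_stable_value (Pi := Pi) (A := ⊤) hS hF
    ((hS.to_quotient M).to_subgroup ⊤) (fun a _ => Subgroup.mem_center_iff.2 fun b => mul_comm b a)
    (fun _ _ _ => ⟨1, fun _ _ _ _ => Subgroup.mem_top _⟩)
  obtain ⟨c, hc, -⟩ := exists_cmap (A := (⊤ : Subgroup B)) (Pi := Pi)
    (fun a _ => Subgroup.mem_center_iff.2 fun b => mul_comm b a) hm
    (fun _ _ _ => ⟨1, fun _ _ _ _ => Subgroup.mem_top _⟩)
  let _ := Fintype.ofFinite (Orb m)
  let _ := Fintype.ofFinite (Quotient (MulAction.orbitRel S (Orb m)))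
  have hx1 : x ≠ 1 := fun h => hxne (by rw [h, map_one])
  set W' : Subgroup S := W.subgroupOf S with hW'def
  have hW'n : W'.Normal := ⟨fun w hw g => by
    show (g : Ω) * (w : Ω) * (g : Ω)⁻¹ ∈ W
    exact hwc W (conjHom W (g : Ω)) (F.conj_mem hW g.2) le_rfl ⟨w, hw⟩ hw⟩
  -- the hypothesis inside `S`
  have hno' : ∀ y : S, ∀ z ∈ W', ∀ W₀ : Subgroup W', IsCoatom W₀ →
      (fun u : S => u⁻¹ * z⁻¹ * u * z)^[p - 1] y ∈ W₀.map W'.subtype →
      (fun u : S => u⁻¹ * z⁻¹ * u * z)^[p - 1] y ∈ ((frattini W₀).map W₀.subtype).map W'.subtype := by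
    intro y z hz W₀ hW₀ hu
    set e := Subgroup.subgroupOfEquivOfLe hW
    let W₁ : Subgroup W := W₀.map e.toMonoidHom
    have hW₁ : IsCoatom W₁ := (OrderIso.isCoatom_iff (MulEquiv.mapSubgroup e) W₀).2 hW₀
    have himg : W₁.map W.subtype = (W₀.map W'.subtype).map S.subtype := by
      simp only [W₁, Subgroup.map_map]
      rfl
    have hit : ∀ n, (((fun u : S => u⁻¹ * z⁻¹ * u * z)^[n] y : S) : Ω) =
        (fun u : Ω => u⁻¹ * (z : Ω)⁻¹ * u * (z : Ω))^[n] (y : Ω) := by
      intro n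
      induction n with
      | zero => rfl
      | succ n ih =>
        rw [Function.iterate_succ_apply', Function.iterate_succ_apply', ← ih]
        simp
    have h1 := hno y y.2 z hz W₁ hW₁ (by rw [himg, ← hit]; exact Subgroup.mem_map_of_mem _ hu)
    rw [frattini_image _ W.subtype_injective, himg, ← frattini_image _ S.subtype_injective, ← hit,
      ← frattini_image _ W'.subtype_injective] at h1
    obtain ⟨w, hw, hwe⟩ := h1
    rwa [← Subtype.ext hwe]
  have hclass : ∀ q : Quotient (MulAction.orbitRel S (Orb m)),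
      ∏ o ∈ Finset.univ.filter (fun o : Orb m => Quotient.mk (MulAction.orbitRel S (Orb m)) o = q), disp c x o =
      ∏ o ∈ Finset.univ.filter (fun o : Orb m => Quotient.mk (MulAction.orbitRel S (Orb m)) o = q),
        if W' ≤ MulAction.stabilizer S o then (Pi x)⁻¹ else 1 := by
    intro q
    induction q using Quotient.inductionOn with
    | h o₀ =>
      have hset : (Finset.univ.filter fun o : Orb m => Quotient.mk (MulAction.orbitRel S (Orb m)) o =
          Quotient.mk (MulAction.orbitRel S (Orb m)) o₀) = Finset.univ.filter (· ∈ MulAction.orbit S o₀) := by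
        ext o
        simp only [Finset.mem_filter, Finset.mem_univ, true_and, Quotient.eq]
        rfl
      rw [hset]
      have hinv : ∀ o ∈ MulAction.orbit S o₀,
          (W' ≤ MulAction.stabilizer S o ↔ W' ≤ MulAction.stabilizer S o₀) := by
        rintro o ⟨g, rfl⟩
        constructor <;> intro h w hw
        · have h1 := h (hW'n.conj_mem w hw g)
          have h2 : (g * w * g⁻¹) • g • o₀ = g • o₀ := h1
          rw [← mul_smul, inv_mul_cancel_right, mul_smul] at h2
          exact MulAction.injective g h2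
        · have h1 : (g⁻¹ * w * g⁻¹⁻¹) • o₀ = o₀ := h (hW'n.conj_mem w hw g⁻¹)
          show w • g • o₀ = g • o₀
          rw [inv_inv, mul_smul, mul_smul] at h1
          exact inv_smul_eq_iff.1 h1
      by_cases ho : W' ≤ MulAction.stabilizer S o₀
      · rw [disp_prod_of_congr hc o₀ ?_ x, Finset.prod_congr rfl fun o h =>
          if_pos ((hinv o (Finset.mem_filter.1 h).2).2 ho), Finset.prod_const]
        intro a b hab
        obtain ⟨R, φ, hφ, hmem⟩ := isFGraph_stab hm.supp (sec o₀)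
        have hWR : W ≤ R := fun w hw => by
          have hw' : (⟨w, hW hw⟩ : S) ∈ W' := hw
          have hg : (⟨w, hW hw⟩ : S) • o₀ = o₀ := ho hw'
          obtain ⟨s, hs⟩ := orb_eq (show orb (((⟨w, hW hw⟩, 1) : S × S) • sec o₀) = orb (sec o₀) by
            rw [← smul_orb, orb_sec, hg])
          have hs' : ((⟨w, hW hw⟩, s) : S × S) ∈ MulAction.stabilizer (S × S) (sec o₀) := by
            show ((⟨w, hW hw⟩, s) : S × S) • sec o₀ = sec o₀
            rw [← pair_mul' (⟨w, hW hw⟩ : S) s, mul_smul]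
            exact hs
          exact ((hmem _).1 hs').1
        obtain ⟨h1, h2⟩ := (hmem _).1 hab
        have hφN : φ ∈ N.Hom R := by
          refine normalizerSystem_mem hW hN hWR ?_ hφ (fun y => ?_) (map_eq_of_weakly hW hwc hφ hWR)
          · rw [hnorm]; exact src_le hφ
          · rw [hnorm]; exact val_mem hφ y
        have h3 : ((a⁻¹ * b : S) : Ω) ∈ N.focalSubgroup :=
          Subgroup.subset_closure ⟨R, φ, ⟨a, h1⟩, hφN, by
            show (a : Ω)⁻¹ * (b : Ω) = (a : Ω)⁻¹ * φ ⟨a, h1⟩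
            rw [h2]⟩
        have h4 : Pi (a⁻¹ * b) = 1 := (QuotientGroup.eq_one_iff _).2 (hNM _ h3)
        rw [map_mul, map_inv, inv_mul_eq_one] at h4
        exact h4
      · rw [Finset.prod_eq_one (f := fun o => if W' ≤ MulAction.stabilizer S o then (Pi x)⁻¹ else 1)
          fun o h => if_neg fun h' => ho ((hinv o (Finset.mem_filter.1 h).2).1 h')]
        have hfl : (Finset.univ.filter (· ∈ MulAction.orbit S o₀) : Finset (Orb m)) =
            Finset.univ.filter (· ∈ MulAction.orbit (⊤ : Subgroup S) o₀) := by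
          ext o
          simp only [Finset.mem_filter, Finset.mem_univ, true_and]
          exact ⟨fun ⟨g, hg⟩ => ⟨⟨g, trivial⟩, hg⟩, fun ⟨g, hg⟩ => ⟨g, hg⟩⟩
        rw [hfl]
        exact orbit_prod_eq_one hS hm hc hexp hx1 hmin W' hno' o₀ ho _ ⊤ rfl le_top le_top x
          (Subgroup.mem_top _) hxf rfl
  have hprod : ∏ o : Orb m, disp c x o =
      ((Pi x)⁻¹) ^ Nat.card {o : Orb m // W' ≤ MulAction.stabilizer S o} := by
    rw [← Finset.prod_fiberwise Finset.univ (Quotient.mk (MulAction.orbitRel S (Orb m))),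
      Finset.prod_congr rfl fun q _ => hclass q, Finset.prod_fiberwise, ← Finset.prod_filter,
      Finset.prod_const, Nat.card_eq_fintype_card, Fintype.card_subtype]
  have hfix : Nat.card (Orb m) ≡ Nat.card {o : Orb m // W' ≤ MulAction.stabilizer S o} [MOD p] := by
    have e : Nat.card (MulAction.fixedPoints W' (Orb m)) =
        Nat.card {o : Orb m // W' ≤ MulAction.stabilizer S o} :=
      Nat.card_congr (Equiv.subtypeEquivRight fun o =>
        ⟨fun h w hw => h ⟨w, hw⟩, fun h w => h w.2⟩)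
    exact e ▸ (hS.to_subgroup W').card_modEq_card_fixedPoints (Orb m)
  have hval := hπval x (Subgroup.mem_top _) c hc (fun _ => Subgroup.mem_top _)
  rw [coe_prodC] at hval
  have herr : ∀ o, err Pi c x (sec o) = Pi x * disp c x o := fun o => mul_assoc _ _ _
  simp only [herr] at hval
  have hone : (Pi x) ^ Nat.card (Orb m) *
      ((Pi x)⁻¹) ^ Nat.card {o : Orb m // W' ≤ MulAction.stabilizer S o} = 1 := by
    have hord : orderOf (Pi x) ∣ p := hBc ▸ orderOf_dvd_natCard _
    rw [pow_eq_pow_iff_modEq.2 (hfix.of_dvd hord), ← mul_pow, mul_inv_cancel, one_pow]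
  rw [Finset.prod_mul_distrib, Finset.prod_const, Finset.card_univ, ← Nat.card_eq_fintype_card, hprod, hone,
    one_pow, inv_one, mul_one] at hval
  have hkill : F.focalSubgroup ≤ π.ker.map S.subtype := by
    refine (Subgroup.closure_le _).2 ?_
    rintro _ ⟨P, ψ, y, hψ, rfl⟩
    refine ⟨⟨y, src_le hψ y.2⟩⁻¹ * ⟨ψ y, val_mem hψ y⟩, ?_, rfl⟩
    rw [SetLike.mem_coe, MonoidHom.mem_ker, map_mul, map_inv,
      hπ P ψ hψ ⟨y, src_le hψ y.2⟩ y.2 ⟨ψ y, val_mem hψ y⟩ rfl (Subgroup.mem_top _) (Subgroup.mem_top _),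
      inv_mul_cancel]
  obtain ⟨y, hy, hyx⟩ := hkill hxf
  obtain rfl : y = x := Subtype.ext hyx
  rw [SetLike.mem_coe, MonoidHom.mem_ker, hval] at hy
  exact hxne hy

/-! ### Groups -/

variable {G : Type u} [Group G] [Finite G] [Fact p.Prime]

omit [Fact p.Prime] [Finite G] in
theorem exists_conj_of_normalizerHom' {P Q : Subgroup G} {N : FusionSystem (normalizerIn P Q)}
    (hN : (groupFusionSystem P).IsNormalizerSystem Q N) {R : Subgroup G} {φ : R →* G}
    (hφ : φ ∈ N.Hom R) [Finite Q] :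
    ∃ g ∈ Subgroup.normalizer (Q : Set G), ∀ x : R, φ x = g * (x : G) * g⁻¹ := by
  rw [hN R] at hφ
  obtain ⟨-, -, -, ψ, ⟨-, -, g, hg⟩, hψ, hψQ⟩ := hφ
  refine ⟨g, mem_normalizer_of_conj_mem fun x hx => ?_, fun x => ?_⟩
  · have h := hψQ.le ⟨⟨x, Subgroup.mem_sup_right hx⟩, hx, rfl⟩
    rwa [hg] at h
  · rw [← hψ x, hg]
    rfl

theorem focal_normalizer_le' (S : Sylow p G) {W : Subgroup G}
    {N : FusionSystem (normalizerIn (S : Subgroup G) W)}
    (hN : (groupFusionSystem (S : Subgroup G)).IsNormalizerSystem W N) :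
    N.focalSubgroup ≤ (S : Subgroup G) ⊓
      ⁅Subgroup.normalizer (W : Set G), Subgroup.normalizer (W : Set G)⁆ := by
  refine (Subgroup.closure_le _).2 ?_
  rintro _ ⟨R, φ, x, hφ, rfl⟩
  obtain ⟨g, hg, he⟩ := exists_conj_of_normalizerHom' hN hφ
  have hx : (x : G) ∈ normalizerIn (S : Subgroup G) W := (N.le_of_mem hφ).1 x.2
  refine ⟨mul_mem (Subgroup.inv_mem _ hx.1) (normalizerIn_le _ _ ((N.le_of_mem hφ).2 x)), ?_⟩
  rw [he]
  have h := Subgroup.commutator_mem_commutator (Subgroup.inv_mem _ hx.2) hg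
  simpa [commutatorElement_def, mul_assoc] using h

theorem group_weakly_hwc {S W : Subgroup G} (hW : Cfsg.IsWeaklyClosed W S) :
    ∀ (R : Subgroup G) (φ : R →* G), φ ∈ (groupFusionSystem S).Hom R → W ≤ R →
      ∀ y : R, (y : G) ∈ W → φ y ∈ W := by
  rintro R φ ⟨-, hval, g, hg⟩ hWR y hy
  have h := hW.2 g (by
    rintro _ ⟨w, hw, rfl⟩
    have := hval ⟨w, hWR hw⟩
    rwa [hg] at this)
  rw [← h, hg]
  exact ⟨y, hy, rfl⟩

/-- The normalizer of a weakly closed subgroup controls transfer. -/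
theorem group_weakly_yoshida (S : Sylow p G) {W : Subgroup G} (hW : Cfsg.IsWeaklyClosed W (S : Subgroup G))
    (h : (S : Subgroup G) ⊓ commutator G ≠ (S : Subgroup G) ⊓
      ⁅Subgroup.normalizer (W : Set G), Subgroup.normalizer (W : Set G)⁆) :
    ∃ x ∈ (S : Subgroup G), ∃ z ∈ W, ∃ W₀ : Subgroup ↥W, IsCoatom W₀ ∧
      (fun y : G => y⁻¹ * z⁻¹ * y * z)^[p - 1] x ∈ W₀.map W.subtype ∧
      (fun y : G => y⁻¹ * z⁻¹ * y * z)^[p - 1] x ∉ ((frattini ↥W₀).map W₀.subtype).map W.subtype := by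
  by_contra hc
  push Not at hc
  obtain ⟨N, hN⟩ := exists_normalizerSystem (groupFusionSystem (S : Subgroup G)) hW.1
  have he := weakly_closed_yoshida S.2 (groupFusionSystem_saturated S) hW.1 (group_weakly_hwc hW) N hN hc
  refine h (le_antisymm ?_ (inf_le_inf_left _ (Subgroup.commutator_mono le_top le_top)))
  exact (inf_commutator_le_focal S).trans (he ▸ focal_normalizer_le' S hN)

/-- Engel condition: the normalizer of a weakly closed subgroup controls the largest `p`-quotient. -/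
theorem group_weakly_residual (P : Sylow p G) {Q : Subgroup G} (hQ : Cfsg.IsWeaklyClosed Q (P : Subgroup G))
    (h : ∀ u ∈ (P : Subgroup G), ∀ z ∈ Q, (fun y : G => y⁻¹ * z⁻¹ * y * z)^[p - 1] u = 1) :
    pResidualOf p (Subgroup.normalizer (Q : Set G)) = pResidual p G ⊓ Subgroup.normalizer (Q : Set G) := by
  obtain ⟨E, hE⟩ := exists_normalizerSystem (groupFusionSystem (P : Subgroup G)) hQ.1
  have hF := groupFusionSystem_saturated P
  have hwc := group_weakly_hwc hQ
  have hnorm := normalizerIn_of_weakly hQ.1 hwc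
  have hEsat := normalizerSystem_saturated P.2 hF (weakly_fullyNormalized hQ.1 hwc) E hE
  have hfoc := weakly_closed_yoshida P.2 hF hQ.1 hwc E hE fun y hy z hz W₀ _ _ => by
    rw [h y hy z hz]
    exact one_mem _
  have hhyp : E.hyperfocalSubgroup p = (groupFusionSystem (P : Subgroup G)).hyperfocalSubgroup p := by
    have key : ∀ (T : Subgroup G) (_ : T = (P : Subgroup G)) (E : FusionSystem T), E.IsSaturated p →
        E.IsSubsystemOf (groupFusionSystem (P : Subgroup G)) →
        E.focalSubgroup = (groupFusionSystem (P : Subgroup G)).focalSubgroup →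
        E.hyperfocalSubgroup p = (groupFusionSystem (P : Subgroup G)).hyperfocalSubgroup p := by
      rintro T rfl E' hE' hsub he
      exact ((tate P.2 hF hE' hsub).2.1 he.symm).symm
    exact key _ hnorm E hEsat (normalizerSystem_le hE) hfoc
  set M := Subgroup.normalizer (Q : Set G)
  have hPM : (P : Subgroup G) ≤ M := hnorm.ge.trans inf_le_right
  have hle : E.hyperfocalSubgroup p ≤ pResidualOf p M := by
    refine hyperfocal_le fun R hR α hα hcop x => ?_
    have hRP : R ≤ (P : Subgroup G) := hR.trans (normalizerIn_le _ _)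
    have := finite_mulAut hRP
    obtain ⟨g, hg, he⟩ := exists_conj_of_normalizerHom' hE ((mem_autGroup hR).1 hα)
    obtain ⟨k, hk, hk1⟩ := exists_pPrime_exponent (⟨g, hg⟩ : M) (N := orderOf α) hcop
    have hpow : ∀ (j : ℕ) (y : R), (((α ^ j) y : R) : G) = g ^ j * (y : G) * (g ^ j)⁻¹ := by
      intro j
      induction j with
      | zero => intro y; simp
      | succ j ih =>
        intro y
        rw [pow_succ' α, MulAut.mul_apply, pow_succ' g]
        refine (he _).trans ?_
        rw [ih]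
        group
    have h1 := hpow k x
    rw [pow_eq_self_of_modEq hk1] at h1
    rw [h1]
    have hxM : (x : G) ∈ M := hPM (hRP x.2)
    have hgk : (⟨g, hg⟩ : M) ^ k ∈ pResidual p M := Transfer.mem_pResidual hk
    refine ⟨(⟨x, hxM⟩ : M)⁻¹ * (⟨g, hg⟩ ^ k) * ⟨x, hxM⟩ * (⟨g, hg⟩ ^ k)⁻¹,
      (pResidual p M).mul_mem ?_ (Subgroup.inv_mem _ hgk), by simp [mul_assoc]⟩
    simpa using (inferInstance : (pResidual p M).Normal).conj_mem _ hgk (⟨x, hxM⟩ : M)⁻¹
  rw [hhyp, S5093.result] at hle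
  refine le_antisymm (le_inf ?_ (Subgroup.map_subtype_le _)) ?_
  · exact Transfer.map_pResidual_subtype_le M
  rintro y ⟨hyG, hyM⟩
  have hsup := Transfer.pResidual_sup_sylow (P.subtype hPM)
  have hy : (⟨y, hyM⟩ : M) ∈ pResidual p M ⊔ (P : Subgroup G).subgroupOf M := by
    rw [← Sylow.coe_subtype (h := hPM), hsup]
    trivial
  obtain ⟨a, ha, b, hb, hab⟩ := Subgroup.mem_sup_of_normal_left.1 hy
  have hbG : (b : G) ∈ pResidual p G := by
    have : (b : G) = (a : G)⁻¹ * y := by
      rw [eq_inv_mul_iff_mul_eq]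
      exact congrArg Subtype.val hab
    rw [this]
    exact mul_mem (Subgroup.inv_mem _ (Transfer.map_pResidual_subtype_le M ⟨a, ha, rfl⟩)) hyG
  have hb' := hle ⟨hb, hbG⟩
  rw [show y = (a : G) * (b : G) from (congrArg Subtype.val hab).symm]
  exact Subgroup.mul_mem _ ⟨a, ha, rfl⟩ hb'

end Cfsg.Agent.Lib.FusionTransfer
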